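/-
Finite additive subgroups given as finsets: character sums, duality, fibres; the double counting lemma for
families of subsets permuted by a group.
-/
import Mathlib

set_option autoImplicit false
set_option linter.unusedSectionVars false
set_option linter.unusedVariables false

namespace Cfsg.Agent.Lib.MinU.Four

open scoped _root_.Classical

universe u v w

section sg

variable {E : Type u} [AddCommGroup E]

/-- Subgroups given as finsets. -/
structure Sg (I : Finset E) : Prop where
  zero : (0 : E) ∈ I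
  add : ∀ {x y}, x ∈ I → y ∈ I → x + y ∈ I
  neg : ∀ {x}, x ∈ I → -x ∈ I

theorem Sg.sub {I : Finset E} (hI : Sg I) {x y : E} (hx : x ∈ I) (hy : y ∈ I) : x - y ∈ I := by
  rw [sub_eq_add_neg]
  exact hI.add hx (hI.neg hy)

theorem Sg.univ [Fintype E] : Sg (Finset.univ : Finset E) :=
  ⟨Finset.mem_univ _, fun _ _ => Finset.mem_univ _, fun _ => Finset.mem_univ _⟩

/-- A translation permutes a subgroup. -/
theorem Sg.image_add {I : Finset E} (hI : Sg I) {a : E} (ha : a ∈ I) : I.image (fun x => x + a) = I := by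
  ext y
  simp only [Finset.mem_image]
  constructor
  · rintro ⟨x, hx, rfl⟩
    exact hI.add hx ha
  · intro hy
    exact ⟨y - a, hI.sub hy ha, by abel⟩

variable {G : Type v} [AddCommGroup G]

/-- The sum of a non-trivial character over a subgroup vanishes. -/
theorem sum_char {I : Finset E} (hI : Sg I) (f : E → ℂ) (hf : ∀ x y, f (x + y) = f x * f y) {x₀ : E}
    (hx₀ : x₀ ∈ I) (hne : f x₀ ≠ 1) : ∑ x ∈ I, f x = 0 := by
  have h1 : ∑ x ∈ I, f x = ∑ x ∈ I, f (x + x₀) := by
    conv_lhs => rw [← hI.image_add hx₀]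
    rw [Finset.sum_image]
    intro a _ b _ hab
    exact add_right_cancel hab
  have h2 : ∑ x ∈ I, f (x + x₀) = (∑ x ∈ I, f x) * f x₀ := by
    rw [Finset.sum_mul]
    exact Finset.sum_congr rfl fun x _ => hf x x₀
  rw [h2] at h1
  have h3 : (∑ x ∈ I, f x) * (1 - f x₀) = 0 := by linear_combination h1
  rcases mul_eq_zero.mp h3 with h | h
  · exact h
  · exact absurd (by linear_combination -h) hne

/-- Duality for a biadditive pairing composed with a character. -/
theorem dual_card {E' : Type w} [AddCommGroup E'] {F : Type v} [AddCommGroup F] (ψ : AddChar F ℂ)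
    (π : E → E' → F) (h1 : ∀ a a' b, π (a + a') b = π a b + π a' b) (h2 : ∀ a b b', π a (b + b') = π a b + π a b')
    {A : Finset E} {B : Finset E'} (hA : Sg A) (hB : Sg B) (hnd : ∀ a ∈ A, a ≠ 0 → ∃ b ∈ B, ψ (π a b) ≠ 1)
    (hz : ∀ b, π 0 b = 0) :
    A.card * (B.filter fun b => ∀ a ∈ A, ψ (π a b) = 1).card = B.card := by
  have e1 : ∑ a ∈ A, ∑ b ∈ B, ψ (π a b) = (B.card : ℂ) := by
    rw [Finset.sum_eq_single_of_mem 0 hA.zero]
    · simp [hz]
    · intro a ha ha0
      obtain ⟨b, hb, hne⟩ := hnd a ha ha0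
      exact sum_char hB (fun b => ψ (π a b)) (fun x y => by rw [h2, AddChar.map_add_eq_mul]) hb hne
  have e2 : ∑ b ∈ B, ∑ a ∈ A, ψ (π a b) = ∑ b ∈ B, (if ∀ a ∈ A, ψ (π a b) = 1 then (A.card : ℂ) else 0) := by
    refine Finset.sum_congr rfl fun b hb => ?_
    split_ifs with hc
    · rw [Finset.sum_congr rfl hc]
      simp
    · push Not at hc
      obtain ⟨a, ha, hne⟩ := hc
      exact sum_char hA (fun a => ψ (π a b)) (fun x y => by rw [h1, AddChar.map_add_eq_mul]) ha hne
  rw [Finset.sum_comm, e2, Finset.sum_ite, Finset.sum_const_zero, add_zero, Finset.sum_const, nsmul_eq_mul] at e1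
  have e3 : ((B.filter fun b => ∀ a ∈ A, ψ (π a b) = 1).card * A.card : ℕ) = B.card := by exact_mod_cast e1
  rw [mul_comm]
  exact e3

/-- A totally isotropic subgroup has at most the square root of the size. -/
theorem ti_card {F : Type v} [AddCommGroup F] (ψ : AddChar F ℂ)
    (π : E → E → F) (h1 : ∀ a a' b, π (a + a') b = π a b + π a' b) (h2 : ∀ a b b', π a (b + b') = π a b + π a b')
    {A B : Finset E} (hA : Sg A) (hB : Sg B) (hAB : A ⊆ B) (hnd : ∀ a ∈ A, a ≠ 0 → ∃ b ∈ B, ψ (π a b) ≠ 1)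
    (hz : ∀ b, π 0 b = 0) (hti : ∀ a ∈ A, ∀ b ∈ A, ψ (π a b) = 1) : A.card * A.card ≤ B.card := by
  rw [← dual_card ψ π h1 h2 hA hB hnd hz]
  apply Nat.mul_le_mul_left
  apply Finset.card_le_card
  intro b hb
  rw [Finset.mem_filter]
  exact ⟨hAB hb, fun a ha => hti a ha b hb⟩

/-- Image and kernel of an additive map on a subgroup. -/
theorem card_image_mul_ker {E' : Type w} [AddCommGroup E'] {I : Finset E} (hI : Sg I) (f : E → E')
    (hf : ∀ x y, f (x + y) = f x + f y) :
    I.card = (I.image f).card * (I.filter fun x => f x = 0).card := by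
  have hf0 : f 0 = 0 := by
    have := hf 0 0
    simpa using this
  have hfs : ∀ x y, f (x - y) = f x - f y := by
    intro x y
    have := hf (x - y) y
    rw [sub_add_cancel] at this
    rw [this]
    abel
  rw [Finset.card_eq_sum_card_image f I]
  rw [Finset.sum_congr rfl (g := fun _ => (I.filter fun x => f x = 0).card), Finset.sum_const, smul_eq_mul]
  intro b hb
  obtain ⟨x₀, hx₀, rfl⟩ := Finset.mem_image.mp hb
  apply Finset.card_bij (fun x _ => x - x₀)
  · intro x hx
    rw [Finset.mem_filter] at hx ⊢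
    refine ⟨hI.sub hx.1 hx₀, ?_⟩
    rw [hfs, hx.2, sub_self]
  · intro a _ b _ hab
    exact sub_left_inj.mp hab
  · intro y hy
    rw [Finset.mem_filter] at hy
    refine ⟨y + x₀, ?_, by abel⟩
    rw [Finset.mem_filter]
    refine ⟨hI.add hy.1 hx₀, ?_⟩
    rw [hf, hy.2, zero_add]

/-- A proper subgroup has at most half the size of the ambient group. -/
theorem two_mul_card_le {I B : Finset E} (hI : Sg I) (hIB : I ⊆ B) {c : E} (hc : c ∈ B) (hcI : c ∉ I) (hB : Sg B) :
    2 * I.card ≤ B.card := by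
  have h1 : (I ∪ I.image (fun x => x + c)).card = I.card + (I.image (fun x => x + c)).card := by
    apply Finset.card_union_of_disjoint
    rw [Finset.disjoint_left]
    intro x hx hx'
    obtain ⟨y, hy, rfl⟩ := Finset.mem_image.mp hx'
    apply hcI
    have := hI.sub hx hy
    rwa [add_sub_cancel_left] at this
  have h2 : (I.image (fun x => x + c)).card = I.card :=
    Finset.card_image_of_injective _ (add_left_injective c)
  have h3 : I ∪ I.image (fun x => x + c) ⊆ B := by
    intro x hx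
    rcases Finset.mem_union.mp hx with hx | hx
    · exact hIB hx
    · obtain ⟨y, hy, rfl⟩ := Finset.mem_image.mp hx
      exact hB.add (hIB hy) hc
  have h4 := Finset.card_le_card h3
  omega

end sg

section fam

variable {α : Type u} [Fintype α]

/-- The images of a subset under a group of permutations. -/
noncomputable def Fam (Γ : Subgroup (Equiv.Perm α)) (I : Finset α) : Finset (Finset α) :=
  Finset.univ.filter fun J => ∃ T ∈ Γ, J = I.image T

variable {Γ : Subgroup (Equiv.Perm α)}

theorem mem_Fam {I J : Finset α} : J ∈ Fam Γ I ↔ ∃ T ∈ Γ, J = I.image T := by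
  simp [Fam]

theorem self_mem_Fam (I : Finset α) : I ∈ Fam Γ I :=
  mem_Fam.mpr ⟨1, Γ.one_mem, by simp⟩

/-- Number of members through a point. -/
noncomputable def Thru (Γ : Subgroup (Equiv.Perm α)) (I : Finset α) (u : α) : ℕ :=
  ((Fam Γ I).filter fun J => u ∈ J).card

theorem Fam_stable {I J : Finset α} (hJ : J ∈ Fam Γ I) {T : Equiv.Perm α} (hT : T ∈ Γ) : J.image T ∈ Fam Γ I := by
  obtain ⟨T', hT', rfl⟩ := mem_Fam.mp hJ
  refine mem_Fam.mpr ⟨T * T', Γ.mul_mem hT hT', ?_⟩
  rw [Finset.image_image]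
  rfl

/-- Moving the base point. -/
theorem Thru_move (I : Finset α) {T : Equiv.Perm α} (hT : T ∈ Γ) (u : α) : Thru Γ I u ≤ Thru Γ I (T u) := by
  unfold Thru
  apply Finset.card_le_card_of_injOn (fun J => J.image T)
  · intro J hJ
    simp only [Finset.coe_filter] at hJ ⊢
    exact ⟨Fam_stable hJ.1 hT, Finset.mem_image_of_mem _ hJ.2⟩
  · intro J _ J' _ h
    exact Finset.image_injective T.injective h

/-- **Double counting**. -/
theorem fam_count (C : Finset α) (hinv : ∀ T ∈ Γ, ∀ x ∈ C, T x ∈ C) (htr : ∀ x ∈ C, ∀ x' ∈ C, ∃ T ∈ Γ, T x = x')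
    (I : Finset α) {u : α} (hu : u ∈ C) :
    Thru Γ I u * C.card ≤ (Fam Γ I).card * (I ∩ C).card := by
  have key := Finset.sum_card_bipartiteAbove_eq_sum_card_bipartiteBelow (s := C) (t := Fam Γ I) (fun (c : α) (J : Finset α) => c ∈ J)
  have h1 : C.card * Thru Γ I u ≤ ∑ c ∈ C, (Finset.bipartiteAbove (fun (c : α) (J : Finset α) => c ∈ J) (Fam Γ I) c).card := by
    rw [← smul_eq_mul, ← Finset.sum_const]
    apply Finset.sum_le_sum
    intro c hc
    obtain ⟨T, hT, rfl⟩ := htr u hu c hc
    exact Thru_move I hT u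
  have h2 : ∑ J ∈ Fam Γ I, (Finset.bipartiteBelow (fun (c : α) (J : Finset α) => c ∈ J) C J).card ≤
      (Fam Γ I).card * (I ∩ C).card := by
    rw [← smul_eq_mul, ← Finset.sum_const]
    apply Finset.sum_le_sum
    intro J hJ
    obtain ⟨T, hT, rfl⟩ := mem_Fam.mp hJ
    apply Finset.card_le_card_of_injOn (fun c => (T⁻¹ : Equiv.Perm α) c)
    · intro c hc
      simp only [Finset.bipartiteBelow, Finset.coe_filter, Finset.mem_image] at hc
      obtain ⟨hcC, y, hy, rfl⟩ := hc
      have h3 := hinv T⁻¹ (Γ.inv_mem hT) _ hcC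
      have h4 : (T⁻¹ : Equiv.Perm α) (T y) = y := by simp
      rw [h4] at h3
      show (T⁻¹ : Equiv.Perm α) (T y) ∈ (↑(I ∩ C) : Set α)
      rw [h4]
      simp only [Finset.coe_inter, Set.mem_inter_iff, Finset.mem_coe]
      exact ⟨hy, h3⟩
    · intro a _ b _ hab
      exact (T⁻¹ : Equiv.Perm α).injective hab
  rw [mul_comm]
  rw [← key] at h2
  exact h1.trans h2

/-- Two members through a point. -/
theorem two_le_Thru {I : Finset α} {u : α} (hu : u ∈ I) {T : Equiv.Perm α} (hT : T ∈ Γ) (hTu : T u = u)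
    (hne : I.image T ≠ I) : 2 ≤ Thru Γ I u := by
  have h1 : ({I, I.image T} : Finset (Finset α)) ⊆ (Fam Γ I).filter fun J => u ∈ J := by
    intro J hJ
    rw [Finset.mem_insert, Finset.mem_singleton] at hJ
    rw [Finset.mem_filter]
    rcases hJ with rfl | rfl
    · exact ⟨self_mem_Fam _, hu⟩
    · refine ⟨mem_Fam.mpr ⟨T, hT, rfl⟩, ?_⟩
      rw [← hTu]
      exact Finset.mem_image_of_mem _ hu
  have h2 := Finset.card_le_card h1
  rw [Finset.card_pair hne.symm] at h2
  exact h2

theorem one_le_Thru {I : Finset α} {u : α} (hu : u ∈ I) : 1 ≤ Thru Γ I u := by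
  apply Finset.card_pos.mpr
  exact ⟨I, Finset.mem_filter.mpr ⟨self_mem_Fam _, hu⟩⟩

end fam

end Cfsg.Agent.Lib.MinU.Four
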