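/-
The fixed field and the trace-zero elements of a field with `q²` elements.
-/
import Mathlib
import Cfsg.Agent.Lib.MinU.Four
import Cfsg.Agent.Lib.Classical.HermBridge

set_option autoImplicit false
set_option linter.unusedSectionVars false
set_option linter.unusedVariables false
set_option linter.unusedSimpArgs false

namespace Cfsg.Agent.Lib.MinU.Fld

open Cfsg.Agent.Lib.MinU.Four Cfsg.Agent.Lib.HermCount.Field Cfsg.Agent.Lib.Classical.HermBasic
open Cfsg.Agent.Lib.Classical.HermBridge
open scoped _root_.Classical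

attribute [-simp] frobHom_apply

universe u

variable {F : Type u} [Field F] [Fintype F] {q : ℕ} (hF : Fintype.card F = q ^ 2)

local notation "σ" => frobHom hF

/-- The fixed field. -/
noncomputable def Fq : Finset F := Finset.univ.filter fun x => frobHom hF x = x

/-- The elements of trace zero. -/
noncomputable def Lam : Finset F := Finset.univ.filter fun a => a + frobHom hF a = 0

variable {hF}

@[simp] theorem mem_Fq {x : F} : x ∈ Fq hF ↔ σ x = x := by simp [Fq]
@[simp] theorem mem_Lam {x : F} : x ∈ Lam hF ↔ x + σ x = 0 := by simp [Lam]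

variable (hF)

theorem sg_Fq : Sg (Fq hF) where
  zero := by simp
  add hx hy := by
    rw [mem_Fq] at *
    rw [map_add, hx, hy]
  neg hx := by
    rw [mem_Fq] at *
    rw [map_neg, hx]

theorem sg_Lam : Sg (Lam hF) where
  zero := by simp
  add hx hy := by
    rw [mem_Lam] at *
    rw [map_add]
    linear_combination hx + hy
  neg hx := by
    rw [mem_Lam] at *
    rw [map_neg]
    linear_combination -hx

include hF in
theorem card_roots_le (c : F) : (Finset.univ.filter fun x : F => x ^ q = c * x).card ≤ q := by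
  have hq := two_le hF
  set p : Polynomial F := Polynomial.X ^ q - Polynomial.C c * Polynomial.X with hp
  have hp0 : p ≠ 0 := by
    intro h0
    have := congrArg (fun r => Polynomial.coeff r q) h0
    simp only [hp, Polynomial.coeff_sub, Polynomial.coeff_X_pow, if_true, Polynomial.coeff_C_mul,
      Polynomial.coeff_X, Polynomial.coeff_zero] at this
    rw [if_neg (by omega)] at this
    simp at this
  have hdeg : p.natDegree ≤ q := by
    refine (Polynomial.natDegree_sub_le _ _).trans ?_
    rw [Polynomial.natDegree_X_pow]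
    exact max_le le_rfl (((Polynomial.natDegree_C_mul_le c Polynomial.X).trans Polynomial.natDegree_X_le).trans (by omega))
  have hsub : (Finset.univ.filter fun x : F => x ^ q = c * x) ⊆ p.roots.toFinset := by
    intro x hx
    rw [Finset.mem_filter] at hx
    rw [Multiset.mem_toFinset, Polynomial.mem_roots hp0]
    simp [hp, Polynomial.IsRoot, hx.2]
  exact (Finset.card_le_card hsub).trans ((Multiset.toFinset_card_le _).trans ((Polynomial.card_roots' p).trans hdeg))

theorem card_Fq_Lam : (Fq hF).card = q ∧ (Lam hF).card = q := by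
  have h1 : (Fq hF).card ≤ q := by
    refine le_trans (Finset.card_le_card ?_) (card_roots_le hF 1)
    intro x hx
    rw [mem_Fq] at hx
    rw [Finset.mem_filter]
    exact ⟨Finset.mem_univ _, by rw [one_mul]; exact hx⟩
  have h2 : (Lam hF).card ≤ q := by
    refine le_trans (Finset.card_le_card ?_) (card_roots_le hF (-1))
    intro x hx
    rw [mem_Lam] at hx
    rw [Finset.mem_filter]
    refine ⟨Finset.mem_univ _, ?_⟩
    have : x ^ q = σ x := rfl
    rw [this]
    linear_combination hx
  have h3 := card_image_mul_ker (I := (Finset.univ : Finset F)) Sg.univ (fun x => x + σ x) (fun x y => by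
    rw [map_add]
    ring)
  have h4 : (Finset.univ.image fun x => x + σ x) ⊆ Fq hF := by
    intro y hy
    obtain ⟨x, -, rfl⟩ := Finset.mem_image.mp hy
    rw [mem_Fq, map_add, (invol_frob hF).invol, add_comm]
  have h5 := Finset.card_le_card h4
  have h6 : (Finset.univ.filter fun x => x + σ x = 0) = Lam hF := rfl
  rw [h6, Finset.card_univ, hF] at h3
  have h7 : (Finset.univ.image fun x => x + σ x).card * (Lam hF).card ≤ (Fq hF).card * (Lam hF).card :=
    Nat.mul_le_mul_right _ h5
  have hq := two_le hF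
  constructor
  · by_contra hne
    have h8 : (Fq hF).card + 1 ≤ q := by omega
    have h9 : (Fq hF).card * (Lam hF).card ≤ (Fq hF).card * q := Nat.mul_le_mul_left _ h2
    nlinarith
  · by_contra hne
    have h8 : (Lam hF).card + 1 ≤ q := by omega
    have h9 : (Fq hF).card * (Lam hF).card ≤ q * (Lam hF).card := Nat.mul_le_mul_right _ h1
    nlinarith

theorem card_Fq : (Fq hF).card = q := (card_Fq_Lam hF).1
theorem card_Lam : (Lam hF).card = q := (card_Fq_Lam hF).2

/-- Number of elements of a given trace. -/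
theorem card_trace (t : F) (ht : σ t = t) : (Finset.univ.filter fun a : F => a + σ a = t).card = q := by
  obtain ⟨s, hs⟩ := (invol_frob hF).exists_trace t ht
  refine Eq.trans ?_ (card_Lam hF)
  apply Finset.card_bij (fun a _ => a - s)
  · intro a ha
    rw [Finset.mem_filter] at ha
    rw [mem_Lam, map_sub]
    linear_combination ha.2 - hs
  · intro a _ b _ hab
    exact sub_left_inj.mp hab
  · intro b hb
    rw [mem_Lam] at hb
    refine ⟨b + s, ?_, by ring⟩
    rw [Finset.mem_filter]
    refine ⟨Finset.mem_univ _, ?_⟩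
    rw [map_add]
    linear_combination hb + hs

theorem exists_norm (t : F) (ht0 : t ≠ 0) (ht : σ t = t) : ∃ l : F, l * σ l = t :=
  (invol_frob hF).exists_norm t ht0 ht

theorem lam_div {a b : F} (ha : a ∈ Lam hF) (hb : b ∈ Lam hF) (hb0 : b ≠ 0) : a / b ∈ Fq hF := by
  rw [mem_Lam] at ha hb
  rw [mem_Fq, map_div₀]
  have h1 : σ a = -a := by linear_combination ha
  have h2 : σ b = -b := by linear_combination hb
  rw [h1, h2]
  field_simp

theorem fq_mul_lam {c a : F} (hc : c ∈ Fq hF) (ha : a ∈ Lam hF) : c * a ∈ Lam hF := by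
  rw [mem_Fq] at hc
  rw [mem_Lam] at ha ⊢
  rw [map_mul, hc]
  linear_combination c * ha

theorem fq_mul {c d : F} (hc : c ∈ Fq hF) (hd : d ∈ Fq hF) : c * d ∈ Fq hF := by
  rw [mem_Fq] at *
  rw [map_mul, hc, hd]

theorem fq_inv {c : F} (hc : c ∈ Fq hF) : c⁻¹ ∈ Fq hF := by
  rw [mem_Fq] at *
  rw [map_inv₀, hc]

theorem one_mem_Fq : (1 : F) ∈ Fq hF := by simp

theorem norm_mem (l : F) : l * σ l ∈ Fq hF := by
  rw [mem_Fq, map_mul, (invol_frob hF).invol, mul_comm]

theorem exists_lam_ne : ∃ a ∈ Lam hF, a ≠ 0 := by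
  obtain ⟨c, hc0, hc⟩ := (invol_frob hF).exists_pure
  exact ⟨c, mem_Lam.mpr hc, hc0⟩

/-- A primitive additive character, non-trivial on the elements of trace zero. -/
theorem exists_psi : ∃ ψ : AddChar F ℂ, (∀ c : F, c ≠ 0 → ∃ t : F, ψ (t * c) ≠ 1) ∧ ∃ ℓ ∈ Lam hF, ψ ℓ ≠ 1 := by
  obtain ⟨ψ, hψ⟩ := AddChar.exists_apply_ne_zero.mpr (one_ne_zero (α := F))
  obtain ⟨a, ha, ha0⟩ := exists_lam_ne hF
  have hcomp : ∃ ψ' : AddChar F ℂ, ψ' a ≠ 1 ∧ ∀ c : F, c ≠ 0 → ∃ t : F, ψ' (t * c) ≠ 1 := by
    refine ⟨ψ.compAddMonoidHom (AddMonoidHom.mulLeft a⁻¹), ?_, ?_⟩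
    · simp only [AddChar.compAddMonoidHom_apply, AddMonoidHom.coe_mulLeft]
      rwa [inv_mul_cancel₀ ha0]
    · intro c hc
      refine ⟨a * c⁻¹, ?_⟩
      simp only [AddChar.compAddMonoidHom_apply, AddMonoidHom.coe_mulLeft]
      have : a⁻¹ * (a * c⁻¹ * c) = 1 := by field_simp
      rwa [this]
  obtain ⟨ψ', h1, h2⟩ := hcomp
  exact ⟨ψ', h2, a, ha, h1⟩

end Cfsg.Agent.Lib.MinU.Fld
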