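/-
Hermitian spaces over a field with `q²` elements: the classes of vectors, their sizes, transitivity of `SU`.
-/
import Mathlib
import Cfsg.Agent.Lib.MinU.Fld
import Cfsg.Agent.Lib.Classical.HermOrders

set_option autoImplicit false
set_option linter.unusedSectionVars false
set_option linter.unusedVariables false
set_option linter.unusedSimpArgs false

namespace Cfsg.Agent.Lib.MinU.Sp

open Module Cfsg.Agent.Lib.MinU.Four Cfsg.Agent.Lib.MinU.Fld Cfsg.Agent.Lib.HermCount.Field
open Cfsg.Agent.Lib.Classical.HermBasic Cfsg.Agent.Lib.Classical.HermElem Cfsg.Agent.Lib.Classical.HermGen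
open Cfsg.Agent.Lib.Classical.HermBridge Cfsg.Agent.Lib.Classical.HermOrders
open scoped _root_.Classical

attribute [-simp] frobHom_apply

universe u v

variable {F : Type u} [Field F] [Fintype F] {q : ℕ} (hF : Fintype.card F = q ^ 2)

local notation "σ" => frobHom hF

variable {W : Type v} [AddCommGroup W] [Module F W] [FiniteDimensional F W] [Fintype W] {h : W → W → F}
  (S : HForm (frobHom hF) h)

include hF in
/-- Size of a space. -/
theorem card_W : Fintype.card W = q ^ (2 * finrank F W) := by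
  have h1 : Nat.card W = Nat.card F ^ finrank F W := Module.natCard_eq_pow_finrank
  rw [Nat.card_eq_fintype_card, Nat.card_eq_fintype_card, hF] at h1
  rw [h1, pow_mul]

include S in
theorem hspace : Cfsg.Agent.Lib.HermCount.Space.HSpace q h :=
  ⟨S.add_left, S.smul_left, S.conj, S.nd⟩

/-- Non-zero isotropic vectors. -/
noncomputable def Iso (h : W → W → F) : Finset W := Finset.univ.filter fun x => x ≠ 0 ∧ h x x = 0

/-- Vectors of given norm. -/
noncomputable def Nm (h : W → W → F) (β : F) : Finset W := Finset.univ.filter fun x => h x x = β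

/-- Non-isotropic vectors. -/
noncomputable def NI (h : W → W → F) : Finset W := Finset.univ.filter fun x => h x x ≠ 0

theorem mem_Iso {x : W} : x ∈ Iso h ↔ x ≠ 0 ∧ h x x = 0 := by simp [Iso]
theorem mem_Nm {x : W} {β : F} : x ∈ Nm h β ↔ h x x = β := by simp [Nm]
theorem mem_NI {x : W} : x ∈ NI h ↔ h x x ≠ 0 := by simp [NI]

/-- The closed form of the recursive count. -/
theorem A_closed (q : ℤ) (j : ℕ) :
    Cfsg.Agent.Lib.HermCount.Space.A q (j + 1) = 1 + (q ^ (j + 1) - (-1) ^ (j + 1)) * (q ^ j + (-1) ^ (j + 1)) := by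
  induction j with
  | zero => simp [Cfsg.Agent.Lib.HermCount.Space.A]
  | succ j ih =>
    have e : Cfsg.Agent.Lib.HermCount.Space.A q (j + 1 + 1) =
        (q + 1) * q ^ (2 * (j + 1)) - q * Cfsg.Agent.Lib.HermCount.Space.A q (j + 1) := rfl
    rw [e, ih]
    have e2 : q ^ (2 * (j + 1)) = (q ^ (j + 1)) ^ 2 := by rw [mul_comm, pow_mul]
    rw [e2]
    have e3 : ((-1 : ℤ)) ^ (j + 1 + 1) = - (-1) ^ (j + 1) := by rw [pow_succ]; ring
    rw [e3]
    have e4 : q ^ (j + 1 + 1) = q * q ^ (j + 1) := by rw [pow_succ]; ring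
    have e5 : q ^ (j + 1) = q * q ^ j := by rw [pow_succ]; ring
    rw [e4]
    have e6 : ((-1 : ℤ) ^ (j + 1)) ^ 2 = 1 := by rw [← pow_mul, mul_comm, pow_mul]; simp
    generalize (-1 : ℤ) ^ (j + 1) = ε at *
    have e7 : ε ^ 2 = 1 := e6
    rw [e5]
    generalize q ^ j = Y at *
    linear_combination (q + 1) * e7

include S in
/-- Count of the isotropic vectors. -/
theorem card_Iso {k : ℕ} (hk : finrank F W = k + 1) :
    ((Iso h).card : ℤ) = ((q : ℤ) ^ (k + 1) - (-1) ^ (k + 1)) * ((q : ℤ) ^ k + (-1) ^ (k + 1)) := by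
  have h1 := Cfsg.Agent.Lib.HermCount.Space.card_isotropic hF (k + 1) W h (hspace hF S) hk
  rw [A_closed] at h1
  have h2 : Nat.card {x : W // h x x = 0} = (Iso h).card + 1 := by
    rw [Nat.card_eq_fintype_card, Fintype.card_subtype]
    have e : (Finset.univ.filter fun x : W => h x x = 0) = insert 0 (Iso h) := by
      ext x
      simp only [Finset.mem_filter, Finset.mem_univ, true_and, Finset.mem_insert, mem_Iso]
      constructor
      · intro hx
        by_cases h0 : x = 0
        · exact Or.inl h0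
        · exact Or.inr ⟨h0, hx⟩
      · rintro (rfl | hx)
        · exact S.zero_left 0
        · exact hx.2
    rw [e, Finset.card_insert_of_notMem]
    simp [mem_Iso]
  rw [h2] at h1
  push_cast at h1
  linarith

include hF S in
/-- Scaling moves one norm class to another. -/
theorem card_Nm_eq {β β' : F} (hβ : β ≠ 0) (hσβ : σ β = β) (hβ' : β' ≠ 0) (hσβ' : σ β' = β') :
    (Nm h β).card = (Nm h β').card := by
  obtain ⟨l, hl⟩ := exists_norm hF (β' / β) (div_ne_zero hβ' hβ) (by rw [map_div₀, hσβ, hσβ'])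
  have hl0 : l ≠ 0 := by
    rintro rfl
    rw [zero_mul] at hl
    exact div_ne_zero hβ' hβ hl.symm
  apply Finset.card_bij (fun x _ => l • x)
  · intro x hx
    rw [mem_Nm] at hx ⊢
    rw [S.smul_left, S.smul_right, hx, ← mul_assoc, hl]
    field_simp
  · intro a _ b _ hab
    exact smul_right_injective W hl0 hab
  · intro y hy
    rw [mem_Nm] at hy
    have hσl : σ l ≠ 0 := by simpa using hl0
    refine ⟨l⁻¹ • y, ?_, by rw [smul_smul, mul_inv_cancel₀ hl0, one_smul]⟩
    rw [mem_Nm, S.smul_left, S.smul_right, hy, map_inv₀]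
    have h3 : l * σ l * β = β' := by rw [hl]; field_simp
    rw [← h3]
    field_simp

include S in
/-- Count of the vectors of a given non-zero norm. -/
theorem card_Nm {k : ℕ} (hk : finrank F W = k + 1) {β : F} (hβ : β ≠ 0) (hσβ : σ β = β) :
    ((Nm h β).card : ℤ) = (q : ℤ) ^ k * ((q : ℤ) ^ (k + 1) - (-1) ^ (k + 1)) := by
  have hq := two_le hF
  -- partition by norm
  have h1 : Fintype.card W = ∑ c ∈ Fq hF, (Nm h c).card := by
    rw [← Finset.card_univ]
    apply Finset.card_eq_sum_card_fiberwise (f := fun x => h x x)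
    intro x _
    exact mem_Fq.mpr (S.self_fix x)
  have h2 : ∑ c ∈ Fq hF, (Nm h c).card = (Nm h 0).card + ((Fq hF).card - 1) * (Nm h β).card := by
    have e : Fq hF = insert 0 ((Fq hF).erase 0) := by
      rw [Finset.insert_erase (sg_Fq hF).zero]
    rw [e, Finset.sum_insert (by simp), Finset.sum_congr rfl (g := fun _ => (Nm h β).card), Finset.sum_const,
      smul_eq_mul, ← e, Finset.card_erase_of_mem (sg_Fq hF).zero]
    intro c hc
    rw [Finset.mem_erase, mem_Fq] at hc
    exact card_Nm_eq hF S hc.1 hc.2 hβ hσβ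
  have h3 : (Nm h 0).card = (Iso h).card + 1 := by
    have e : Nm h 0 = insert 0 (Iso h) := by
      ext x
      simp only [mem_Nm, Finset.mem_insert, mem_Iso]
      constructor
      · intro hx
        by_cases h0 : x = 0
        · exact Or.inl h0
        · exact Or.inr ⟨h0, hx⟩
      · rintro (rfl | hx)
        · exact S.zero_left 0
        · exact hx.2
    rw [e, Finset.card_insert_of_notMem]
    simp [mem_Iso]
  rw [h2, h3, card_W hF, card_Fq hF, hk] at h1
  have h4 := card_Iso hF S hk
  have h5 : ((q ^ (2 * (k + 1)) : ℕ) : ℤ) = ((((Iso h).card + 1 + (q - 1) * (Nm h β).card : ℕ)) : ℤ) := by rw [h1]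
  push_cast [Nat.cast_sub (show 1 ≤ q by omega)] at h5
  rw [h4] at h5
  have hq1 : (q : ℤ) - 1 ≠ 0 := by
    have : (2 : ℤ) ≤ q := by exact_mod_cast hq
    omega
  apply mul_left_cancel₀ hq1
  have e2 : (q : ℤ) ^ (2 * (k + 1)) = ((q : ℤ) ^ k * q) ^ 2 := by
    rw [mul_comm 2, pow_mul, ← pow_succ]
  rw [e2] at h5
  have e3 : ((-1 : ℤ) ^ (k + 1)) ^ 2 = 1 := by rw [← pow_mul, mul_comm, pow_mul]; simp
  have e4 : (q : ℤ) ^ (k + 1) = (q : ℤ) ^ k * q := pow_succ _ _
  rw [e4] at h5 ⊢
  generalize (-1 : ℤ) ^ (k + 1) = ε at *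
  generalize (q : ℤ) ^ k = Y at *
  linear_combination -h5 + e3

include S in
/-- The non-zero vectors split in the two classes. -/
theorem card_NI {k : ℕ} (hk : finrank F W = k + 1) :
    ((NI h).card : ℤ) = ((q : ℤ) - 1) * ((q : ℤ) ^ k * ((q : ℤ) ^ (k + 1) - (-1) ^ (k + 1))) := by
  have hq := two_le hF
  have h1 := card_W (W := W) hF
  have e : (Finset.univ : Finset W) = insert 0 (Iso h ∪ NI h) := by
    ext x
    simp only [Finset.mem_univ, Finset.mem_insert, Finset.mem_union, mem_Iso, mem_NI, true_iff]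
    by_cases h0 : x = 0
    · exact Or.inl h0
    · by_cases h2 : h x x = 0
      · exact Or.inr (Or.inl ⟨h0, h2⟩)
      · exact Or.inr (Or.inr h2)
  have h3 : Fintype.card W = (Iso h).card + (NI h).card + 1 := by
    rw [← Finset.card_univ, e, Finset.card_insert_of_notMem, Finset.card_union_of_disjoint]
    · rw [Finset.disjoint_left]
      intro x hx hx'
      exact (mem_NI.mp hx') (mem_Iso.mp hx).2
    · simp [S.zero_left, mem_Iso, mem_NI]
  rw [h3, hk] at h1
  have h4 := card_Iso hF S hk
  have h5 : (((Iso h).card + (NI h).card + 1 : ℕ) : ℤ) = ((q ^ (2 * (k + 1)) : ℕ) : ℤ) := by rw [h1]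
  push_cast at h5
  rw [h4] at h5
  have e2 : (q : ℤ) ^ (2 * (k + 1)) = ((q : ℤ) ^ k * q) ^ 2 := by
    rw [mul_comm 2, pow_mul, ← pow_succ]
  rw [e2] at h5
  have e3 : ((-1 : ℤ) ^ (k + 1)) ^ 2 = 1 := by rw [← pow_mul, mul_comm, pow_mul]; simp
  have e4 : (q : ℤ) ^ (k + 1) = (q : ℤ) ^ k * q := pow_succ _ _
  rw [e4] at h5 ⊢
  generalize (-1 : ℤ) ^ (k + 1) = ε at *
  generalize (q : ℤ) ^ k = Y at *
  linear_combination h5 + e3

section trans

include S

/-- Non-isotropic vectors orthogonal to a non-zero vector in dimension at least three, or to a non-isotropic vector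
in dimension at least two. -/
theorem exists_ni_perp (hk : 3 ≤ finrank F W) {y : W} (hy : y ≠ 0) : ∃ z, h z y = 0 ∧ h z z ≠ 0 := by
  have hσ := invol_frob hF
  by_cases hyy : h y y = 0
  · obtain ⟨f, hff, hfe⟩ := S.exists_partner hσ hy hyy
    obtain ⟨u, hu, huu⟩ := exists_nonisotropic_perp2 S hσ hk (e := y) (f := f) ⟨hyy, hff, hfe⟩
    exact ⟨u, hu.1, huu⟩
  · -- a vector orthogonal to `y`
    obtain ⟨u, hu0, huy⟩ := exists_orth S hσ (by omega) y
    by_cases huu : h u u = 0
    · obtain ⟨f, hff, hfu⟩ := S.exists_partner hσ hu0 huu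
      -- project the partner
      set f' := f - (h f y / h y y) • y with hf'
      have hf'y : h f' y = 0 := by
        rw [hf', S.sub_left, S.smul_left]
        field_simp
        ring
      have huy' : h y u = 0 := S.zero_symm huy
      have hf'u : h f' u = 1 := by
        rw [hf', S.sub_left, S.smul_left, huy', hfu]
        ring
      by_cases hf'f' : h f' f' = 0
      · -- `f' + u` has non-zero trace
        obtain ⟨c, hc⟩ := hσ.exists_trace 1 (map_one _)
        refine ⟨f' + c • u, ?_, ?_⟩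
        · rw [S.add_left, S.smul_left, hf'y, huy]
          ring
        · have h1 : h u f' = 1 := by rw [S.conj f' u, hf'u, map_one]
          simp only [S.add_left, S.add_right, S.smul_left, S.smul_right, hf'f', huu, hf'u, h1]
          have : 0 + σ c * 1 + (c * 1 + c * (σ c * 0)) = c + σ c := by ring
          rw [this, hc]
          exact one_ne_zero
      · exact ⟨f', hf'y, hf'f'⟩
    · exact ⟨u, huy, huu⟩

/-- `SU` is transitive on vectors of a given norm. -/
theorem su_trans {x y : W} (hk : 3 ≤ finrank F W) (hx : x ≠ 0) (hy : y ≠ 0) (hxy : h x x = h y y) :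
    ∃ g ∈ suGroup h, g x = y := by
  have hσ := invol_frob hF
  obtain ⟨g, hg, hgx⟩ := exists_map_of_norm_eq S hσ hx hy hxy
  obtain ⟨z, hzy, hzz⟩ := exists_ni_perp hF S hk hy
  have hdet := det_norm_one hF S hg
  set δ := LinearMap.det (g : W →ₗ[F] W) with hδ
  have hδ0 : δ ≠ 0 := by
    intro h0
    rw [h0, zero_pow (by omega)] at hdet
    exact zero_ne_one hdet
  have hδn : δ⁻¹ * σ δ⁻¹ = 1 := by
    rw [map_inv₀]
    have : δ * σ δ = 1 := by
      have e : δ ^ (q + 1) = δ ^ q * δ := pow_succ _ _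
      rw [e] at hdet
      have e2 : σ δ = δ ^ q := rfl
      rw [e2, mul_comm]
      exact hdet
    have h2 : σ δ ≠ 0 := by simpa using hδ0
    field_simp
    exact this.symm
  obtain ⟨r, hr⟩ := exists_qrAt S hzz hδn
  have hyz : h y z = 0 := S.zero_symm hzy
  refine ⟨r * g, ?_, ?_⟩
  · rw [mem_suGroup]
    refine ⟨mul_mem (hr.mem_uGroup S) hg, ?_⟩
    rw [dt_mul, hr.det S, ← hδ]
    exact inv_mul_cancel₀ hδ0
  · show r (g x) = y
    rw [hgx]
    exact hr.apply_orth hyz

end trans

end Cfsg.Agent.Lib.MinU.Sp
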