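/-
A subgroup of a Hermitian space without non-zero isotropic vectors has at most `q²` elements (Chevalley–Warning).
-/
import Mathlib
import Cfsg.Agent.Lib.MinU.Sp

set_option autoImplicit false
set_option linter.unusedSectionVars false
set_option linter.unusedVariables false
set_option linter.unusedSimpArgs false

namespace Cfsg.Agent.Lib.MinU.Aniso

open Module Cfsg.Agent.Lib.MinU.Four Cfsg.Agent.Lib.MinU.Fld Cfsg.Agent.Lib.HermCount.Field
open Cfsg.Agent.Lib.Classical.HermBasic
open scoped _root_.Classical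

attribute [-simp] frobHom_apply

universe u v

variable {F : Type u} [Field F] [Fintype F] {q : ℕ} (hF : Fintype.card F = q ^ 2)

local notation "σ" => frobHom hF

variable {W : Type v} [AddCommGroup W] [Module F W] [Fintype W] {h : W → W → F}
  (S : HForm (frobHom hF) h)

include S in
theorem aniso_card {I : Finset W} (hI : Sg I) (han : ∀ x ∈ I, h x x = 0 → x = 0) : I.card ≤ q ^ 2 := by
  obtain ⟨p, hp⟩ := CharP.exists F
  obtain ⟨n, hpp, hcard⟩ := FiniteField.card F p
  haveI : Fact p.Prime := ⟨hpp⟩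
  have hqd : q ∣ p ^ (n : ℕ) := by
    rw [← hcard, hF]
    exact dvd_pow_self q two_ne_zero
  obtain ⟨e, -, he⟩ := (Nat.dvd_prime_pow hpp).mp hqd
  let ι : ZMod p →+* F := ZMod.castHom (dvd_refl p) F
  have hσι : ∀ a : ZMod p, σ (ι a) = ι a := by
    intro a
    have : (σ).comp ι = ι := RingHom.ext_zmod _ _
    exact congrArg (fun f : ZMod p →+* F => f a) this
  letI mW : Module (ZMod p) W := Module.compHom W ι
  letI mF : Module (ZMod p) F := Module.compHom F ι
  have smW : ∀ (a : ZMod p) (x : W), a • x = ι a • x := fun _ _ => rfl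
  have smF : ∀ (a : ZMod p) (x : F), a • x = ι a * x := fun _ _ => rfl
  -- the subgroup as a subspace
  let Ia : AddSubgroup W := ⟨⟨⟨I, fun hx hy => hI.add hx hy⟩, hI.zero⟩, fun hx => hI.neg hx⟩
  let M : Submodule (ZMod p) W := AddSubgroup.toZModSubmodule p Ia
  have hM : ∀ x, x ∈ M ↔ x ∈ I := fun x => Iff.rfl
  -- the fixed field as a subspace
  let Fa : AddSubgroup F := ⟨⟨⟨Fq hF, fun hx hy => (sg_Fq hF).add hx hy⟩, (sg_Fq hF).zero⟩, fun hx => (sg_Fq hF).neg hx⟩
  let Fm : Submodule (ZMod p) F := AddSubgroup.toZModSubmodule p Fa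
  have hFm : ∀ x, x ∈ Fm ↔ x ∈ Fq hF := fun x => Iff.rfl
  have hI0 : Nat.card M = I.card := by
    rw [Nat.card_eq_fintype_card, Fintype.card_of_subtype I (fun x => (hM x).symm)]
  have hF0 : Nat.card Fm = p ^ e := by
    rw [Nat.card_eq_fintype_card, Fintype.card_of_subtype (Fq hF) (fun x => (hFm x).symm), card_Fq hF, he]
  set r := finrank (ZMod p) M with hr
  have hIr : I.card = p ^ r := by
    rw [← hI0, Module.natCard_eq_pow_finrank (K := ZMod p), Nat.card_zmod]
  have hFe : finrank (ZMod p) Fm = e := by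
    have h1 : Nat.card Fm = p ^ finrank (ZMod p) Fm := by
      rw [Module.natCard_eq_pow_finrank (K := ZMod p), Nat.card_zmod]
    rw [hF0] at h1
    exact (Nat.pow_right_injective hpp.two_le h1).symm
  by_contra hcon
  push Not at hcon
  have hrlt : 2 * e < r := by
    rw [hIr, he, ← pow_mul, mul_comm e 2] at hcon
    exact (Nat.pow_lt_pow_iff_right hpp.one_lt).mp hcon
  -- the functionals
  let c := Module.finBasisOfFinrankEq (ZMod p) Fm hFe
  have hext : ∀ j : Fin e, ∃ ℓ : F →ₗ[ZMod p] ZMod p, ℓ.comp Fm.subtype = c.coord j :=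
    fun j => LinearMap.exists_extend (c.coord j)
  choose ℓ hℓ using hext
  let b := Module.finBasisOfFinrankEq (ZMod p) M rfl
  -- the polynomials
  let P : Fin e → MvPolynomial (Fin r) (ZMod p) := fun j =>
    ∑ i, ∑ i', MvPolynomial.C (ℓ j (h (b i : W) (b i' : W))) * (MvPolynomial.X i * MvPolynomial.X i')
  have hdeg : ∀ j, (P j).totalDegree ≤ 2 := by
    intro j
    apply MvPolynomial.totalDegree_finsetSum_le
    intro i _
    apply MvPolynomial.totalDegree_finsetSum_le
    intro i' _
    refine (MvPolynomial.totalDegree_mul _ _).trans ?_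
    rw [MvPolynomial.totalDegree_C, zero_add]
    refine (MvPolynomial.totalDegree_mul _ _).trans ?_
    rw [MvPolynomial.totalDegree_X, MvPolynomial.totalDegree_X]
  have hsum : ∑ j, (P j).totalDegree < Fintype.card (Fin r) := by
    rw [Fintype.card_fin]
    calc ∑ j, (P j).totalDegree ≤ ∑ _j : Fin e, 2 := Finset.sum_le_sum fun j _ => hdeg j
      _ = 2 * e := by simp [mul_comm]
      _ < r := hrlt
  have hdvd := char_dvd_card_solutions_of_fintype_sum_lt (K := ZMod p) p hsum
  -- a non-trivial solution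
  have h0sol : ∀ j, MvPolynomial.eval (0 : Fin r → ZMod p) (P j) = 0 := by
    intro j
    simp [P]
  obtain ⟨x, hx0, hxsol⟩ : ∃ x : Fin r → ZMod p, x ≠ 0 ∧ ∀ j, MvPolynomial.eval x (P j) = 0 := by
    by_contra hno
    push Not at hno
    rw [Fintype.card_eq_nat_card] at hdvd
    have huniq : Nat.card {x : Fin r → ZMod p // ∀ j, MvPolynomial.eval x (P j) = 0} = 1 := by
      rw [Nat.card_eq_one_iff_unique]
      refine ⟨⟨?_⟩, ⟨⟨0, h0sol⟩⟩⟩
      rintro ⟨y, hy⟩ ⟨y', hy'⟩
      have hz : ∀ z : Fin r → ZMod p, (∀ j, MvPolynomial.eval z (P j) = 0) → z = 0 := by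
        intro z hz
        by_contra hz0
        obtain ⟨j, hj⟩ := hno z hz0
        exact hj (hz j)
      apply Subtype.ext
      show y = y'
      rw [hz y hy, hz y' hy']
    rw [huniq] at hdvd
    exact hpp.one_lt.ne' (Nat.dvd_one.mp hdvd)
  -- the vector
  set w : M := ∑ i, x i • b i with hw
  have hw0 : (w : W) ≠ 0 := by
    intro h0
    have h1 : w = 0 := Subtype.ext h0
    apply hx0
    funext i
    have h2 := Fintype.linearIndependent_iff.mp b.linearIndependent x h1 i
    exact h2
  have hwv : (w : W) = ∑ i, ι (x i) • (b i : W) := by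
    rw [hw]
    simp only [AddSubmonoidClass.coe_finsetSum, SetLike.val_smul]
    rfl
  have hnorm : h w w = ∑ i, ∑ i', ι (x i * x i') * h (b i : W) (b i' : W) := by
    have hadd : ∀ (s : Finset (Fin r)) (f : Fin r → W) (z : W), h (∑ i ∈ s, f i) z = ∑ i ∈ s, h (f i) z := by
      intro s f z
      induction s using Finset.induction_on with
      | empty => simp [S.zero_left]
      | insert a s ha ih => rw [Finset.sum_insert ha, Finset.sum_insert ha, S.add_left, ih]
    have hadd' : ∀ (s : Finset (Fin r)) (f : Fin r → W) (z : W), h z (∑ i ∈ s, f i) = ∑ i ∈ s, h z (f i) := by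
      intro s f z
      induction s using Finset.induction_on with
      | empty => simp [S.zero_right]
      | insert a s ha ih => rw [Finset.sum_insert ha, Finset.sum_insert ha, S.add_right, ih]
    rw [hwv, hadd]
    refine Finset.sum_congr rfl fun i _ => ?_
    rw [hadd']
    refine Finset.sum_congr rfl fun i' _ => ?_
    rw [S.smul_left, S.smul_right, hσι, map_mul]
    ring
  have hlin : ∀ j, ℓ j (h w w) = 0 := by
    intro j
    have h1 := hxsol j
    simp only [P, map_sum, map_mul, MvPolynomial.eval_C, MvPolynomial.eval_X] at h1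
    rw [hnorm, map_sum]
    rw [← h1]
    refine Finset.sum_congr rfl fun i _ => ?_
    rw [map_sum]
    refine Finset.sum_congr rfl fun i' _ => ?_
    have h2 : ι (x i * x i') * h (b i : W) (b i' : W) = (x i * x i') • h (b i : W) (b i' : W) := rfl
    rw [h2, map_smul, smul_eq_mul]
    ring
  have hfix : h w w ∈ Fm := (hFm _).mpr (mem_Fq.mpr (S.self_fix _))
  have hzero : (⟨h w w, hfix⟩ : Fm) = 0 := by
    apply c.ext_elem
    intro j
    have h1 := hlin j
    have h2 : (ℓ j).comp Fm.subtype ⟨h w w, hfix⟩ = c.coord j ⟨h w w, hfix⟩ := by rw [hℓ]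
    rw [LinearMap.comp_apply] at h2
    have h3 : ℓ j (Fm.subtype ⟨h w w, hfix⟩) = ℓ j (h w w) := rfl
    rw [h3, h1] at h2
    simp only [Basis.coord_apply] at h2
    rw [← h2]
    simp
  have hww : h w w = 0 := congrArg Subtype.val hzero
  exact hw0 (han w ((hM _).mp w.2) hww)

end Cfsg.Agent.Lib.MinU.Aniso
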