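/-
Eichler transformations as elements of the special unitary group: the group law.
-/
import Mathlib
import Cfsg.Agent.Lib.MinU.Aniso

set_option autoImplicit false
set_option linter.unusedSectionVars false
set_option linter.unusedVariables false
set_option linter.unusedSimpArgs false

namespace Cfsg.Agent.Lib.MinU.Eich

open Module Cfsg.Agent.Lib.MinU.Four Cfsg.Agent.Lib.MinU.Fld Cfsg.Agent.Lib.HermCount.Field
open Cfsg.Agent.Lib.Classical.HermBasic Cfsg.Agent.Lib.Classical.HermElem Cfsg.Agent.Lib.Classical.HermGen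
open Cfsg.Agent.Lib.Classical.HermBridge
open scoped _root_.Classical

attribute [-simp] frobHom_apply

universe u v

variable {F : Type u} [Field F] {σ : F →+* F}
variable {V : Type v} [AddCommGroup V] [Module F V] {h : V → V → F}

theorem EichAt.unique {e w : V} {a : F} {g g' : V ≃ₗ[F] V} (H : EichAt σ h e w a g) (H' : EichAt σ h e w a g') :
    g = g' := by
  ext x
  rw [H.apply, H'.apply]

/-- Valid parameters. -/
structure Val (σ : F →+* F) (h : V → V → F) (e w : V) (a : F) : Prop where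
  ee : h e e = 0
  we : h w e = 0
  ha : a + σ a + h w w = 0

variable [FiniteDimensional F V] (S : HForm σ h)

/-- The Eichler element. -/
noncomputable def E (S : HForm σ h) (e w : V) (a : F) : suGroup h :=
  if hv : Val σ h e w a then
    ⟨Classical.choose (exists_eichAt S hv.ee hv.we hv.ha),
      (Classical.choose_spec (exists_eichAt S hv.ee hv.we hv.ha)).mem_suGroup S⟩
  else 1

variable {S}

theorem E_spec {e w : V} {a : F} (hv : Val σ h e w a) : EichAt σ h e w a (E S e w a).1 := by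
  rw [E, dif_pos hv]
  exact Classical.choose_spec (exists_eichAt S hv.ee hv.we hv.ha)

theorem E_eq {e w : V} {a : F} (hv : Val σ h e w a) {g : suGroup h} (hg : EichAt σ h e w a g.1) : E S e w a = g :=
  Subtype.ext (EichAt.unique (E_spec hv) hg)

theorem E_apply {e w : V} {a : F} (hv : Val σ h e w a) (x : V) :
    (E S e w a).1 x = x + h x e • w - h x w • e + (a * h x e) • e := (E_spec hv).apply x

theorem Val.mul {e w w' : V} {a a' : F} (hv : Val σ h e w a) (hv' : Val σ h e w' a') (S : HForm σ h) :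
    Val σ h e (w + w') (a + a' - h w' w) := by
  have H := (E_spec (S := S) hv).mul S (E_spec (S := S) hv')
  exact ⟨H.ee, H.we, H.ha⟩

theorem E_mul {e w w' : V} {a a' : F} (hv : Val σ h e w a) (hv' : Val σ h e w' a') :
    E S e w a * E S e w' a' = E S e (w + w') (a + a' - h w' w) := by
  have H := (E_spec (S := S) hv).mul S (E_spec (S := S) hv')
  exact (E_eq (S := S) ⟨H.ee, H.we, H.ha⟩ H).symm

theorem Val.inv {e w : V} {a : F} (hv : Val σ h e w a) (S : HForm σ h) (hσ : Invol σ) : Val σ h e (-w) (σ a) := by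
  have H := (E_spec (S := S) hv).inv S hσ
  exact ⟨H.ee, H.we, H.ha⟩

theorem E_inv {e w : V} {a : F} (hv : Val σ h e w a) (hσ : Invol σ) : (E S e w a)⁻¹ = E S e (-w) (σ a) := by
  have H := (E_spec (S := S) hv).inv S hσ
  exact (E_eq (S := S) ⟨H.ee, H.we, H.ha⟩ H).symm

theorem Val.conj {e w : V} {a : F} (hv : Val σ h e w a) (g : suGroup h) : Val σ h (g.1 e) (g.1 w) a := by
  have hg := g.2.1
  exact ⟨by rw [hg, hv.ee], by rw [hg, hv.we], by rw [hg]; exact hv.ha⟩

theorem E_conj {e w : V} {a : F} (hv : Val σ h e w a) (g : suGroup h) :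
    g * E S e w a * g⁻¹ = E S (g.1 e) (g.1 w) a := by
  have H := (E_spec (S := S) hv).conj g.2.1
  exact (E_eq (S := S) (hv.conj g) H).symm

theorem Val.smul (S : HForm σ h) (hσ : Invol σ) {e w : V} {a c : F} (hv : Val σ h (c • e) w a) (hc : c ≠ 0) :
    Val σ h e (σ c • w) (a * (c * σ c)) := by
  have H := (E_spec (S := S) hv).smul_center S hσ hc
  exact ⟨H.ee, H.we, H.ha⟩

theorem E_smul (hσ : Invol σ) {e w : V} {a c : F} (hv : Val σ h (c • e) w a) (hc : c ≠ 0) :
    E S (c • e) w a = E S e (σ c • w) (a * (c * σ c)) := by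
  have H := (E_spec (S := S) hv).smul_center S hσ hc
  exact (E_eq (S := S) ⟨H.ee, H.we, H.ha⟩ H).symm

theorem Val.shift (S : HForm σ h) (hσ : Invol σ) {e w : V} {a c : F} (hv : Val σ h e (w + c • e) a) :
    Val σ h e w (a + c - σ c) := by
  have H := (E_spec (S := S) hv).shift S hσ
  exact ⟨H.ee, H.we, H.ha⟩

theorem E_shift (hσ : Invol σ) {e w : V} {a c : F} (hv : Val σ h e (w + c • e) a) :
    E S e (w + c • e) a = E S e w (a + c - σ c) := by
  have H := (E_spec (S := S) hv).shift S hσ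
  exact (E_eq (S := S) ⟨H.ee, H.we, H.ha⟩ H).symm

theorem val_zero (S : HForm σ h) {e : V} {ℓ : F} (hee : h e e = 0) (hℓ : ℓ + σ ℓ = 0) : Val σ h e 0 ℓ :=
  ⟨hee, S.zero_left _, by rw [S.zero_left, add_zero]; exact hℓ⟩

theorem E_zero_zero (hσ : Invol σ) {e : V} (hee : h e e = 0) : E S e 0 0 = 1 := by
  have hv : Val σ h e 0 0 := val_zero S hee (by simp)
  apply Subtype.ext
  ext x
  rw [E_apply hv]
  simp [S.zero_right]

theorem E_z_mul {e w : V} {a ℓ : F} (hv : Val σ h e w a) (hℓ : ℓ + σ ℓ = 0) :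
    E S e 0 ℓ * E S e w a = E S e w (a + ℓ) := by
  rw [E_mul (val_zero S hv.ee hℓ) hv, zero_add, S.zero_right, sub_zero, add_comm ℓ]

theorem E_mul_z {e w : V} {a ℓ : F} (hv : Val σ h e w a) (hℓ : ℓ + σ ℓ = 0) :
    E S e w a * E S e 0 ℓ = E S e w (a + ℓ) := by
  rw [E_mul hv (val_zero S hv.ee hℓ), add_zero, S.zero_left, sub_zero]

theorem Val.z_add {e w : V} {a ℓ : F} (hv : Val σ h e w a) (hℓ : ℓ + σ ℓ = 0) : Val σ h e w (a + ℓ) :=
  ⟨hv.ee, hv.we, by
    have h1 := hv.ha
    rw [map_add]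
    linear_combination h1 + hℓ⟩

/-- The trace-zero difference of two parameters with the same vector. -/
theorem Val.sub_tr {e w : V} {a a' : F} (hv : Val σ h e w a) (hv' : Val σ h e w a') : (a' - a) + σ (a' - a) = 0 := by
  have h1 := hv.ha
  have h2 := hv'.ha
  rw [map_sub]
  linear_combination h2 - h1

/-- The commutator. -/
theorem E_comm {e w w' : V} {a a' : F} (hv : Val σ h e w a) (hv' : Val σ h e w' a') (hσ : σ (h w w') = h w' w) :
    E S e w a * E S e w' a' = E S e 0 (h w w' - h w' w) * (E S e w' a' * E S e w a) := by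
  have hℓ : (h w w' - h w' w) + σ (h w w' - h w' w) = 0 := by
    rw [map_sub, hσ]
    have : σ (h w' w) = h w w' := S.conj' w' w
    rw [this]
    ring
  rw [E_mul hv hv', E_mul hv' hv, E_z_mul (hv'.mul hv S) hℓ, add_comm w w']
  congr 1
  ring

end Cfsg.Agent.Lib.MinU.Eich
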